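-- Generated: the letters of the Suzuki group over the field with 8 elements.
import Cfsg.Agent.Lib.KnownSimple.Sz8Lab.Final
import Cfsg.Agent.Lib.KnownSimple.SzGen

set_option autoImplicit false
set_option maxRecDepth 100000

namespace Cfsg.Agent.Lib.KnownSimple.Sz8Lab

open Cfsg.Agent.Lib.KnownSimple.Lab Cfsg.Agent.Lib.KnownSimple.LabMat Cfsg.Agent.Lib.KnownSimple.LabField
open Cfsg.Agent.Lib.KnownSimple.SzGen Cfsg.Agent.Lib.Suzuki Subgroup

variable {F : Type*} [Field F] [Fintype F]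

theorem c_inv : mulC add8 mul8 4 (Ls.getD 2 []) (Ls.getD 0 []) = idC 4 ∧
    mulC add8 mul8 4 (Ls.getD 3 []) (Ls.getD 1 []) = idC 4 := by decide +kernel

theorem toM_list (φ : ℕ → F) (c : Fin 16 → ℕ) :
    toM φ 4 [c 0, c 1, c 2, c 3, c 4, c 5, c 6, c 7, c 8, c 9, c 10, c 11, c 12, c 13, c 14, c 15] =
      !![φ (c 0), φ (c 1), φ (c 2), φ (c 3); φ (c 4), φ (c 5), φ (c 6), φ (c 7);
        φ (c 8), φ (c 9), φ (c 10), φ (c 11); φ (c 12), φ (c 13), φ (c 14), φ (c 15)] := by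
  ext i j
  fin_cases i <;> fin_cases j <;> rfl

/-- The multiplier of the Suzuki group on the ovoid. -/
theorem result_sz (hF : Fintype.card F = 8) :
    Cfsg.HasSchurMultiplier (Cfsg.Sz F 1) (Multiplicative (ZMod 2 × ZMod 2)) := by
  classical
  have hF' : Fintype.card F = 2 ^ (2 * 1 + 1) := hF
  have hm : 1 ≤ 1 := le_refl 1
  obtain ⟨R⟩ := exists_rep8 hF
  haveI := finite_Sz hF' hm
  -- the torus element
  have h2 : R.φ 2 ≠ 0 := by
    intro e
    have h3 := R.hmul 2 5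
    rw [show mul8 2 5 = 1 by decide +kernel, R.h1, e, zero_mul] at h3
    exact one_ne_zero h3
  let t0 : Fˣ := Units.mk0 (R.φ 2) h2
  have ht1 : t0 ≠ 1 := by
    intro e
    have h3 : R.φ 2 = R.φ 1 := by
      rw [R.h1]
      exact congrArg Units.val e
    exact absurd (R.hinj 2 1 (by norm_num) (by norm_num) h3) (by norm_num)
  have hcardU : Nat.card Fˣ = 7 := by
    rw [Nat.card_eq_fintype_card, Fintype.card_units, hF]
  have ht0 : ∀ x : Fˣ, x ∈ zpowers t0 := by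
    haveI : Fact (Nat.Prime (Nat.card Fˣ)) := ⟨by rw [hcardU]; norm_num⟩
    have := zpowers_eq_top_of_prime_card (G := Fˣ) rfl ht1
    intro x
    rw [this]
    exact mem_top x
  let τ : Cfsg.Sz F 1 := tG hF' t0
  let b : Cfsg.Sz F 1 := uG hF' 1 0 * wG hF' hm
  let γ : ℕ → Cfsg.Sz F 1 := fun a => match a with
    | 0 => b
    | 1 => τ
    | 2 => b⁻¹
    | 3 => τ⁻¹
    | _ => 1
  let ι : Cfsg.Sz F 1 →* Matrix (Fin 4) (Fin 4) F := (slHom F 4).comp (Cfsg.Sz F 1).subtype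
  have hι : Function.Injective ι := slHom_inj.comp (Subgroup.subtype_injective _)
  have e0 : ι (γ 0) = toM R.φ 4 (Ls.getD 0 []) := by
    show Um 1 (1 : F) 0 * Wm F = _
    rw [show Ls.getD 0 [] = [1, 1, 1, 1, 0, 1, 1, 0, 1, 1, 0, 0, 1, 0, 0, 0] from rfl,
      show toM R.φ 4 [1, 1, 1, 1, 0, 1, 1, 0, 1, 1, 0, 0, 1, 0, 0, 0] = _ from toM_list R.φ ![1, 1, 1, 1, 0, 1, 1, 0, 1, 1, 0, 0, 1, 0, 0, 0]]
    ext i j
    fin_cases i <;> fin_cases j <;>
      simp [Um, Wm, Matrix.mul_apply, Fin.sum_univ_four, R.h0, R.h1]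
  have p4 : R.φ 4 = R.φ 2 ^ 2 := by
    have h3 := R.hmul 2 2
    rw [show mul8 2 2 = 4 by decide +kernel] at h3
    rw [h3, pow_two]
  have p3 : R.φ 3 = R.φ 2 ^ 3 := by
    have h3 := R.hmul 4 2
    rw [show mul8 4 2 = 3 by decide +kernel, p4] at h3
    rw [h3]
    ring
  have p7 : R.φ 7 = (R.φ 2 ^ 2)⁻¹ := by
    have h3 := R.hmul 4 7
    rw [show mul8 4 7 = 1 by decide +kernel, R.h1, p4] at h3
    exact eq_inv_of_mul_eq_one_right h3.symm
  have p6 : R.φ 6 = (R.φ 2 ^ 3)⁻¹ := by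
    have h3 := R.hmul 3 6
    rw [show mul8 3 6 = 1 by decide +kernel, R.h1, p3] at h3
    exact eq_inv_of_mul_eq_one_right h3.symm
  have e1 : ι (γ 1) = toM R.φ 4 (Ls.getD 1 []) := by
    show Tm 1 (R.φ 2) = _
    rw [show Ls.getD 1 [] = [3, 0, 0, 0, 0, 4, 0, 0, 0, 0, 7, 0, 0, 0, 0, 6] from rfl,
      show toM R.φ 4 [3, 0, 0, 0, 0, 4, 0, 0, 0, 0, 7, 0, 0, 0, 0, 6] = _ from toM_list R.φ ![3, 0, 0, 0, 0, 4, 0, 0, 0, 0, 7, 0, 0, 0, 0, 6]]
    ext i j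
    fin_cases i <;> fin_cases j <;> simp [Tm, R.h0, p3, p4, p6, p7]
  have e2 : ι (γ 2) = toM R.φ 4 (Ls.getD 2 []) := by
    have h3 : toM R.φ 4 (Ls.getD 2 []) * ι (γ 0) = 1 := by
      rw [e0, ← toM_mulC R.hadd R.hmul R.h0, c_inv.1, toM_idC R.h0 R.h1]
    have h4 : ι (γ 0) * ι (γ 2) = 1 := by
      rw [← map_mul]
      show ι (b * b⁻¹) = 1
      rw [mul_inv_cancel, map_one]
    calc ι (γ 2) = (toM R.φ 4 (Ls.getD 2 []) * ι (γ 0)) * ι (γ 2) := by rw [h3, one_mul]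
      _ = toM R.φ 4 (Ls.getD 2 []) := by rw [mul_assoc, h4, mul_one]
  have e3 : ι (γ 3) = toM R.φ 4 (Ls.getD 3 []) := by
    have h3 : toM R.φ 4 (Ls.getD 3 []) * ι (γ 1) = 1 := by
      rw [e1, ← toM_mulC R.hadd R.hmul R.h0, c_inv.2, toM_idC R.h0 R.h1]
    have h4 : ι (γ 1) * ι (γ 3) = 1 := by
      rw [← map_mul]
      show ι (τ * τ⁻¹) = 1
      rw [mul_inv_cancel, map_one]
    calc ι (γ 3) = (toM R.φ 4 (Ls.getD 3 []) * ι (γ 1)) * ι (γ 3) := by rw [h3, one_mul]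
      _ = toM R.φ 4 (Ls.getD 3 []) := by rw [mul_assoc, h4, mul_one]
  have hγ : ∀ a < 4, ι (γ a) = toM R.φ 4 (Ls.getD a []) := by
    intro a ha
    interval_cases a
    · exact e0
    · exact e1
    · exact e2
    · exact e3
  refine main γ ?_ ?_ ?_ ?_ ?_
  · intro a ha
    interval_cases a <;> rfl
  · rw [eq_top_iff, ← two_gen' hF' hm t0 ht0 ht1, closure_le]
    rintro x (rfl | hx)
    · exact subset_closure ⟨1, by norm_num, rfl⟩
    · rw [Set.mem_singleton_iff] at hx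
      subst hx
      exact subset_closure ⟨0, by norm_num, rfl⟩
  · intro w hw h
    exact gen_eq_one ι hι R.hadd R.hmul R.h0 R.h1 hγ w hw h
  · intro w hw h
    exact gen_ne_one ι (q := 8) R.hadd R.hmul R.h0 R.h1 R.hinj hγ w hw h
  · rw [card_Sz hF' hm]
    norm_num

/-- The multiplier of the Suzuki group. -/
theorem result (hF : Fintype.card F = 8) :
    Cfsg.HasSchurMultiplier ↥(Cfsg.Lie.Sz F 4) (Multiplicative (ZMod 2 × ZMod 2)) :=
  schur_of_equiv (szEquiv (show Fintype.card F = 2 ^ (2 * 1 + 1) from hF) (le_refl 1)) (result_sz hF)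

end Cfsg.Agent.Lib.KnownSimple.Sz8Lab
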